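import Mathlib.GroupTheory.Index
import Mathlib.GroupTheory.Schreier
import Mathlib.GroupTheory.Sylow
import Mathlib.GroupTheory.OrderOfElement
import Mathlib.Algebra.GCDMonoid.Finset
import Mathlib.Algebra.GCDMonoid.Nat
import Mathlib.Data.Finite.Perm
import Mathlib.Data.Set.Card.Arithmetic
import Mathlib.Data.Nat.Factorial.Basic
import Mathlib.Data.Nat.Prime.Factorial
import Mathlib.Tactic

/-! # Groups with bounded class sizes -/

set_option linter.style.haveILetI false
set_option linter.unusedSectionVars false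

namespace Cfsg.Agent.FGS4.BFC

open Subgroup
open scoped commutatorElement

variable {G : Type*} [Group G] [Finite G]

theorem card_range_conj (g : G) :
    Nat.card (Set.range fun y : G => y * g * y⁻¹) = (centralizer {g}).index := by
  have key : ∀ a b : G, a * g * a⁻¹ = b * g * b⁻¹ ↔ a⁻¹ * b ∈ centralizer {g} := by
    intro a b
    rw [mem_centralizer_singleton_iff]
    constructor
    · intro h
      calc a⁻¹ * b * g = a⁻¹ * (b * g * b⁻¹) * b := by group
        _ = g * (a⁻¹ * b) := by rw [← h]; group
    · intro h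
      calc a * g * a⁻¹ = a * (g * (a⁻¹ * b)) * b⁻¹ := by group
        _ = b * g * b⁻¹ := by rw [← h]; group
  let F : G ⧸ centralizer {g} → Set.range (fun y : G => y * g * y⁻¹) :=
    Quotient.lift (fun y => ⟨y * g * y⁻¹, y, rfl⟩) fun a b hab => Subtype.ext
      ((key a b).2 (QuotientGroup.leftRel_apply.1 hab))
  refine (Nat.card_congr (Equiv.ofBijective F ⟨?_, ?_⟩)).symm
  · rintro ⟨a⟩ ⟨b⟩ h
    exact Quotient.sound (QuotientGroup.leftRel_apply.2 ((key a b).1 (congrArg Subtype.val h)))
  · rintro ⟨_, y, rfl⟩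
    exact ⟨QuotientGroup.mk y, rfl⟩

theorem index_centralizer_le_commutator (g : G) :
    (centralizer {g}).index ≤ Nat.card (commutator G) := by
  rw [← card_range_conj]
  refine Nat.card_le_card_of_injective (fun a : Set.range (fun y : G => y * g * y⁻¹) =>
    (⟨a.1 * g⁻¹, ?_⟩ : commutator G)) ?_
  · obtain ⟨y, hy⟩ := a.2
    rw [← hy]
    exact commutator_mem_commutator (mem_top y) (mem_top g)
  · intro a b h
    exact Subtype.ext (mul_right_cancel (congrArg Subtype.val h))

theorem index_mul_le {a b : G} {A B : ℕ} (ha : (centralizer {a}).index ≤ A) (hb : (centralizer {b}).index ≤ B) :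
    (centralizer {a * b}).index ≤ A * B := by
  have hle : centralizer {a} ⊓ centralizer {b} ≤ centralizer {a * b} := by
    intro x hx
    obtain ⟨h1, h2⟩ := mem_inf.1 hx
    rw [mem_centralizer_singleton_iff] at h1 h2 ⊢
    rw [← mul_assoc, h1, mul_assoc, h2, ← mul_assoc]
  refine (Nat.le_of_dvd (Nat.pos_of_ne_zero index_ne_zero_of_finite) (index_dvd_of_le hle)).trans ?_
  exact (index_inf_le).trans (Nat.mul_le_mul ha hb)

theorem index_centralizer_conj (g y : G) : (centralizer {y * g * y⁻¹}).index = (centralizer {g}).index := by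
  rw [← card_range_conj, ← card_range_conj]
  congr 1
  refine congrArg (fun S : Set G => (S : Type _)) ?_
  ext v
  constructor
  · rintro ⟨u, rfl⟩; exact ⟨u * y, by group⟩
  · rintro ⟨u, rfl⟩; exact ⟨u * y⁻¹, by group⟩

theorem index_prod_le {n A : ℕ} (f : Fin n → G) (hf : ∀ i, (centralizer {f i}).index ≤ A) :
    (centralizer {(List.ofFn f).prod}).index ≤ A ^ n := by
  induction n with
  | zero =>
    simp only [List.ofFn_zero, List.prod_nil, pow_zero]
    have : centralizer ({1} : Set G) = ⊤ := by
      rw [eq_top_iff]; intro x _; rw [mem_centralizer_singleton_iff, mul_one, one_mul]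
    rw [this, index_top]
  | succ n ih =>
    rw [List.ofFn_succ, List.prod_cons, pow_succ']
    exact index_mul_le (hf 0) (ih _ fun i => hf i.succ)

/-- An element of `p`-power order commutes with one whose class has fewer than `p` elements. -/
theorem commute_of_index_lt {p : ℕ} (hp : p.Prime) {g h : G} {k : ℕ} (hg : orderOf g = p ^ k)
    (hh : (centralizer {h}).index < p) : Commute g h := by
  classical
  set C := centralizer ({h} : Set G)
  let π : G →* Equiv.Perm (G ⧸ C) := MulAction.toPermHom G (G ⧸ C)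
  have h1 : orderOf (π g) ∣ p ^ k := hg ▸ orderOf_map_dvd π g
  obtain ⟨j, -, hj⟩ := (Nat.dvd_prime_pow hp).1 h1
  have h2 : orderOf (π g) ∣ Nat.card (Equiv.Perm (G ⧸ C)) := orderOf_dvd_natCard _
  rw [Nat.card_perm, ← index_eq_card, hj] at h2
  have hj0 : j = 0 := by
    by_contra hne
    exact absurd ((hp.dvd_factorial).1 ((dvd_pow_self p hne).trans h2)) (not_le.2 hh)
  rw [hj0, pow_zero, orderOf_eq_one_iff] at hj
  have h3 : g • ((1 : G) : G ⧸ C) = ((1 : G) : G ⧸ C) := by
    have := congrFun (congrArg DFunLike.coe hj) ((1 : G) : G ⧸ C)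
    simpa [π] using this
  rw [MulAction.Quotient.smul_coe, QuotientGroup.eq, smul_eq_mul, mul_one, mul_one, inv_mem_iff,
    mem_centralizer_singleton_iff] at h3
  exact h3

/-- The `p`-part of an element. -/
noncomputable def ppart (g : G) (p : ℕ) : G := g ^ (orderOf g / p ^ (orderOf g).factorization p)

theorem orderOf_ppart (g : G) (p : ℕ) : orderOf (ppart g p) = p ^ (orderOf g).factorization p := by
  have hn : 0 < orderOf g := orderOf_pos g
  have hd := Nat.ordProj_dvd (orderOf g) p
  have hq : 0 < orderOf g / p ^ (orderOf g).factorization p :=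
    Nat.div_pos (Nat.le_of_dvd hn hd) (Nat.pos_of_dvd_of_pos hd hn)
  rw [ppart, orderOf_pow' g hq.ne', Nat.gcd_eq_right (Nat.div_dvd_of_dvd hd), Nat.div_div_self hd hn.ne']

theorem commute_of_ppart {g h : G} (H : ∀ p, p.Prime → p ∣ orderOf g → Commute h (ppart g p)) : Commute h g := by
  classical
  set n := orderOf g with hn
  have hn0 : 0 < n := orderOf_pos g
  set f : ℕ → ℕ := fun p => n / p ^ n.factorization p with hf
  have hgcd : ∀ s : Finset ℕ, (∀ p ∈ s, Commute h (g ^ f p)) → Commute h (g ^ s.gcd f) := by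
    intro s
    induction s using Finset.induction_on with
    | empty => intro _; simp
    | insert a s ha ih =>
      intro hs
      rw [Finset.gcd_insert]
      have h1 := hs a (Finset.mem_insert_self a s)
      have h2 := ih fun p hp => hs p (Finset.mem_insert_of_mem hp)
      show Commute h (g ^ Nat.gcd (f a) (s.gcd f))
      have : g ^ Nat.gcd (f a) (s.gcd f) =
          (g ^ f a) ^ Nat.gcdA (f a) (s.gcd f) * (g ^ s.gcd f) ^ Nat.gcdB (f a) (s.gcd f) := by
        rw [← zpow_natCast, Nat.gcd_eq_gcd_ab, zpow_add, zpow_mul, zpow_mul, zpow_natCast, zpow_natCast]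
      rw [this]
      exact (h1.zpow_right _).mul_right (h2.zpow_right _)
  have hd := hgcd n.primeFactors fun p hp =>
    H p (Nat.prime_of_mem_primeFactors hp) (Nat.dvd_of_mem_primeFactors hp)
  rcases eq_or_ne n 1 with h1 | h1
  · rw [show g = 1 from orderOf_eq_one_iff.1 h1]; exact Commute.one_right h
  have hone : n.primeFactors.gcd f = 1 := by
    by_contra hne
    obtain ⟨r, hr, hrd⟩ := Nat.exists_prime_and_dvd hne
    obtain ⟨p, hp⟩ := Nat.nonempty_primeFactors.2 (show 1 < n by omega)
    have hrn : r ∣ n := hrd.trans ((Finset.gcd_dvd hp).trans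
      (Nat.div_dvd_of_dvd (Nat.ordProj_dvd n p)))
    exact Nat.not_dvd_ordCompl hr hn0.ne'
      (hrd.trans (Finset.gcd_dvd (Nat.mem_primeFactors.2 ⟨hr, hrn, hn0.ne'⟩)))
  rwa [hone, pow_one] at hd

/-- Bounded classes on elements of prime power order bound all classes. -/
theorem index_le_of_prime_power {K : ℕ} (hK : 1 ≤ K)
    (H : ∀ g : G, ∀ p k : ℕ, p.Prime → orderOf g = p ^ k → (centralizer {g}).index ≤ K) (g : G) :
    (centralizer {g}).index ≤ K ^ (K + 1) := by
  classical
  have hbig : ∀ x : G, ∀ p k : ℕ, p.Prime → orderOf x = p ^ k → K < p → ∀ h : G, Commute h x := by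
    intro x p k hp hx hKp h
    refine commute_of_ppart (h := x) (g := h) (fun r hr _ => ?_) |>.symm
    exact commute_of_index_lt hp hx (lt_of_le_of_lt (H _ r _ hr (orderOf_ppart h r)) hKp)
  set S := (Finset.range (K + 1)).filter Nat.Prime
  have hle : S.inf (fun p => centralizer {ppart g p}) ≤ centralizer {g} := by
    intro h hh
    rw [mem_centralizer_singleton_iff]
    refine (commute_of_ppart fun p hp _ => ?_).eq
    by_cases hpK : p ≤ K
    · have h1 : S.inf (fun p => centralizer {ppart g p}) ≤ centralizer {ppart g p} :=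
        Finset.inf_le (Finset.mem_filter.2 ⟨Finset.mem_range.2 (by omega), hp⟩)
      exact mem_centralizer_singleton_iff.1 (h1 hh)
    · exact hbig _ p _ hp (orderOf_ppart g p) (by omega) h
  refine (Nat.le_of_dvd (Nat.pos_of_ne_zero index_ne_zero_of_finite) (index_dvd_of_le hle)).trans ?_
  have h2 : ∀ T : Finset ℕ, (∀ p ∈ T, p.Prime) →
      (T.inf (fun p => centralizer {ppart g p})).index ≤ K ^ T.card := by
    intro T
    induction T using Finset.induction_on with
    | empty => intro _; simp
    | insert a T ha ih =>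
      intro hT
      rw [Finset.inf_insert, Finset.card_insert_of_notMem ha, pow_succ']
      exact index_inf_le.trans (Nat.mul_le_mul (H _ a _ (hT a (Finset.mem_insert_self a T)) (orderOf_ppart g a))
        (ih fun p hp => hT p (Finset.mem_insert_of_mem hp)))
  refine (h2 S fun p hp => (Finset.mem_filter.1 hp).2).trans (Nat.pow_le_pow_right hK ?_)
  exact (Finset.card_filter_le _ _).trans (by simp)

/-- A group with class sizes at most `K` has boundedly many commutators. -/
theorem card_commutatorSet_le {K : ℕ} (hK : 1 ≤ K) (H : ∀ g : G, (centralizer {g}).index ≤ K) :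
    Nat.card (commutatorSet G) ≤ K ^ K * (K * K * K) := by
  classical
  obtain ⟨a, ha⟩ := Finite.exists_max (fun g : G => (centralizer {g}).index)
  set cl := Set.range fun y : G => y * a * y⁻¹ with hcl
  haveI : Fintype cl := Fintype.ofFinite _
  have hn : Fintype.card cl ≤ K := by
    rw [← Nat.card_eq_fintype_card, card_range_conj]; exact H a
  choose t ht using fun c : cl => c.2
  set U : Subgroup G := Finset.univ.inf (fun c : cl => centralizer {t c}) with hU
  have hUidx : U.index ≤ K ^ K := by
    have h2 : ∀ T : Finset cl, (T.inf (fun c : cl => centralizer {t c})).index ≤ K ^ T.card := by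
      intro T
      induction T using Finset.induction_on with
      | empty => simp
      | insert b T hb ih =>
        rw [Finset.inf_insert, Finset.card_insert_of_notMem hb, pow_succ']
        exact index_inf_le.trans (Nat.mul_le_mul (H _) ih)
    exact (h2 _).trans (Nat.pow_le_pow_right hK (by rw [Finset.card_univ]; exact hn))
  set D : Set G := Set.range fun c : cl × cl => c.1.1 * c.2.1⁻¹ with hD
  have hDcard : Nat.card D ≤ K * K := by
    refine (Finite.card_range_le _).trans ?_
    rw [Nat.card_prod, Nat.card_eq_fintype_card]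
    exact Nat.mul_le_mul hn hn
  have hUD : ∀ u ∈ U, ∀ y : G, ⁅u, y⁆ ∈ D := by
    intro u hu y
    have hu' : u⁻¹ ∈ U := inv_mem hu
    set w := u⁻¹ with hw
    have hfix : ∀ c : cl, t c * (w * a) * (t c)⁻¹ = w * c.1 := by
      intro c
      have h1 : U ≤ centralizer {t c} := Finset.inf_le (Finset.mem_univ c)
      have h2 := mem_centralizer_singleton_iff.1 (h1 hu')
      have h3 : t c * a * (t c)⁻¹ = c.1 := ht c
      calc t c * (w * a) * (t c)⁻¹ = (t c * w) * a * (t c)⁻¹ := by group
        _ = w * (t c * a * (t c)⁻¹) := by rw [← h2]; group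
        _ = w * c.1 := by rw [h3]
    set cw := Set.range fun y : G => y * (w * a) * y⁻¹ with hcw
    let F : cl → cw := fun c => ⟨w * c.1, t c, hfix c⟩
    have hFb : Function.Bijective F := by
      refine Function.Injective.bijective_of_nat_card_le (fun c d h => Subtype.ext ?_) ?_
      · exact mul_left_cancel (congrArg Subtype.val h)
      · rw [card_range_conj, card_range_conj]; exact ha _
    obtain ⟨c, hc⟩ := hFb.2 ⟨y * (w * a) * y⁻¹, y, rfl⟩
    have hc' : w * c.1 = y * (w * a) * y⁻¹ := congrArg Subtype.val hc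
    refine ⟨(c, ⟨y * a * y⁻¹, y, rfl⟩), ?_⟩
    show c.1 * (y * a * y⁻¹)⁻¹ = ⁅u, y⁆
    rw [show c.1 = w⁻¹ * (w * c.1) by group, hc', commutatorElement_def, hw]
    group
  have hsub : commutatorSet G ⊆ ⋃ q : G ⧸ U,
      ((fun de : G × G => q.out * de.1 * q.out⁻¹ * de.2) ''
        (D ×ˢ ((fun v : G => q.out * v) '' Set.range fun y : G => y * q.out⁻¹ * y⁻¹))) := by
    rintro _ ⟨g, y, rfl⟩
    set q : G ⧸ U := QuotientGroup.mk g
    refine Set.mem_iUnion.2 ⟨q, ?_⟩
    obtain ⟨u, hu⟩ := QuotientGroup.mk_out_eq_mul U g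
    refine ⟨(⁅(u : G)⁻¹, y⁆, q.out * (y * q.out⁻¹ * y⁻¹)), ⟨hUD _ (inv_mem u.2) y, _, ⟨y, rfl⟩, rfl⟩, ?_⟩
    show q.out * ⁅(u : G)⁻¹, y⁆ * q.out⁻¹ * (q.out * (y * q.out⁻¹ * y⁻¹)) = ⁅g, y⁆
    rw [show g = q.out * (u : G)⁻¹ by rw [hu, mul_inv_cancel_right]]
    simp only [commutatorElement_def]
    group
  haveI : Fintype (G ⧸ U) := Fintype.ofFinite _
  have h1 : ∀ q : G ⧸ U, Set.ncard ((fun de : G × G => q.out * de.1 * q.out⁻¹ * de.2) ''
        (D ×ˢ ((fun v : G => q.out * v) '' Set.range fun y : G => y * q.out⁻¹ * y⁻¹))) ≤ K * K * K := by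
    intro q
    refine (Set.ncard_image_le (Set.toFinite _)).trans ?_
    rw [Set.ncard_prod]
    refine Nat.mul_le_mul (by rw [← Nat.card_coe_set_eq]; exact hDcard) ?_
    refine (Set.ncard_image_le (Set.toFinite _)).trans ?_
    rw [← Nat.card_coe_set_eq, card_range_conj]
    exact H _
  rw [Nat.card_coe_set_eq]
  refine (Set.ncard_le_ncard hsub (Set.toFinite _)).trans ?_
  refine (Set.ncard_iUnion_le_of_fintype _).trans ?_
  refine (Finset.sum_le_sum fun q _ => h1 q).trans ?_
  rw [Finset.sum_const, smul_eq_mul, Finset.card_univ, ← Nat.card_eq_fintype_card, ← index_eq_card]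
  exact Nat.mul_le_mul_right _ hUidx

/-- A bound for the derived subgroup in terms of the class sizes. -/
def derivedBound (K : ℕ) : ℕ := (Finset.range (K ^ K * (K * K * K) + 1)).sup cardCommutatorBound

theorem card_commutator_le {K : ℕ} (hK : 1 ≤ K) (H : ∀ g : G, (centralizer {g}).index ≤ K) :
    Nat.card (commutator G) ≤ derivedBound K :=
  (card_commutator_le_of_finite_commutatorSet G).trans
    (Finset.le_sup (Finset.mem_range.2 (Nat.lt_succ_of_le (card_commutatorSet_le hK H))))

end Cfsg.Agent.FGS4.BFC
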