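import Cfsg.Agent.FGS3.FixedPointOrders
import Cfsg.Agent.FGS4.BFC.Classes

/-! # Decompositions along the fixed points of a rank two group -/

set_option linter.style.haveILetI false
set_option linter.unusedSectionVars false

namespace Cfsg.Agent.FGS4.BFC

open Subgroup Finset
open scoped commutatorElement
open Cfsg.Agent.FGS3.FixedPointOrders (fixed mem_fixed autAb autAb_of c c_pos c_eq_mul c_sylow of_surj)

section abelian

variable {A : Type*} [CommGroup A] [Finite A] {p : ℕ}

theorem abelian_surj (hp : p.Prime) (hA : p.Coprime (Nat.card A)) (σ τ : MulAut A) (hc : Commute σ τ)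
    (hσ : σ ^ p = 1) (hτ : τ ^ p = 1) (a : A) :
    ∃ (u : Fin p → A) (w : A), (∀ i : Fin p, u i ∈ fixed (σ * τ ^ (i : ℕ))) ∧ w ∈ fixed τ ∧ (∏ i, u i) * w = a := by
  classical
  haveI : NeZero p := ⟨hp.pos.ne'⟩
  have hnorm : ∀ (y : MulAut A), y ^ p = 1 → ∀ b : A, y (∏ k ∈ range p, (y ^ k) b) = ∏ k ∈ range p, (y ^ k) b := by
    intro y hy b
    obtain ⟨l, hl⟩ := Nat.exists_eq_succ_of_ne_zero hp.pos.ne'
    rw [map_prod]
    have h1 : ∀ k, y ((y ^ k) b) = (y ^ (k + 1)) b := fun k => by rw [pow_succ', MulAut.mul_apply]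
    simp only [h1]
    rw [hl, prod_range_succ, prod_range_succ' (fun k => (y ^ k) b)]
    rw [show y ^ (l + 1) = 1 by rw [← hy, hl], pow_zero]
  set y : Fin p → MulAut A := fun i => σ * τ ^ (i : ℕ) with hy
  have hyp : ∀ i, y i ^ p = 1 := fun i => by
    show (σ * τ ^ (i : ℕ)) ^ p = 1
    rw [(hc.pow_right _).mul_pow, hσ, ← pow_mul, mul_comm, pow_mul, hτ, one_pow, mul_one]
  -- the span of the fixed points
  let D := (∀ i : Fin p, fixed (y i)) × fixed τ
  let Φ : D →* A := MonoidHom.mk' (fun d => (∏ i, (d.1 i : A)) * d.2) fun a b => by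
    show (∏ i, ((a.1 i : A) * (b.1 i : A))) * ((a.2 : A) * b.2) = _
    rw [Finset.prod_mul_distrib]
    exact mul_mul_mul_comm _ _ _ _
  have hpow : ∀ b : A, b ^ p ∈ Φ.range := by
    intro b
    have hN : ∀ i, ∏ k ∈ range p, (y i ^ k) b ∈ fixed (y i) := fun i => mem_fixed.2 (hnorm _ (hyp i) b)
    have hrest : ∀ k ∈ Finset.Ico 1 p, τ (∏ i : Fin p, (y i ^ k) b) = ∏ i : Fin p, (y i ^ k) b := by
      intro k hk
      rw [Finset.mem_Ico] at hk
      have hperm : ∏ i : Fin p, (y i ^ k) b = (σ ^ k) (∏ j ∈ range p, (τ ^ j) b) := by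
        rw [map_prod, ← Fin.prod_univ_eq_prod_range (fun j => (σ ^ k) ((τ ^ j) b))]
        let e : Fin p → Fin p := fun i => ⟨(i : ℕ) * k % p, Nat.mod_lt _ hp.pos⟩
        have hinj : Function.Injective e := by
          intro i j h
          have h1 : (i : ℕ) * k ≡ (j : ℕ) * k [MOD p] := congrArg Fin.val h
          have hkp : p.Coprime k :=
            (hp.coprime_iff_not_dvd).2 fun hd => absurd (Nat.le_of_dvd (by omega) hd) (by omega)
          have h2 := Nat.ModEq.cancel_right_of_coprime hkp h1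
          exact Fin.ext (Nat.ModEq.eq_of_lt_of_lt h2 i.2 j.2)
        refine Fintype.prod_bijective e (Finite.injective_iff_bijective.1 hinj) _ _ fun i => ?_
        show ((σ * τ ^ (i : ℕ)) ^ k) b = (σ ^ k) ((τ ^ ((i : ℕ) * k % p)) b)
        rw [(hc.pow_right _).mul_pow, ← pow_mul, MulAut.mul_apply]
        congr 1
        rw [← pow_eq_pow_mod _ hτ]
      rw [hperm]
      have h3 : ∀ v, τ ((σ ^ k) v) = (σ ^ k) (τ v) := fun v => DFunLike.congr_fun (hc.symm.pow_right k).eq v
      rw [h3, hnorm τ hτ b]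
    have hsplit : ∏ i : Fin p, ∏ k ∈ range p, (y i ^ k) b =
        b ^ p * ∏ k ∈ Finset.Ico 1 p, ∏ i : Fin p, (y i ^ k) b := by
      rw [Finset.prod_comm, range_eq_Ico, Finset.prod_eq_prod_Ico_succ_bot hp.pos]
      congr 1
      simp
    refine ⟨(fun i => ⟨_, hN i⟩, ⟨(∏ k ∈ Finset.Ico 1 p, ∏ i : Fin p, (y i ^ k) b)⁻¹, ?_⟩), ?_⟩
    · exact inv_mem (prod_mem fun k hk => mem_fixed.2 (hrest k hk))
    · show (∏ i : Fin p, ∏ k ∈ range p, (y i ^ k) b) * _ = b ^ p
      rw [hsplit, mul_inv_cancel_right]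
  obtain ⟨e, he⟩ := exists_pow_eq_self_of_coprime (x := a) (n := p)
    (hA.coprime_dvd_right (orderOf_dvd_natCard a))
  have ha : a ∈ Φ.range := by rw [← he]; exact pow_mem (hpow a) e
  obtain ⟨⟨u, w⟩, huw⟩ := ha
  exact ⟨fun i => u i, w, fun i => (u i).2, w.2, huw⟩

/-- The reverse of the abelian fixed-point order inequality. -/
theorem abelian_lower (hp : p.Prime) (hA : p.Coprime (Nat.card A)) (σ τ : MulAut A) (hc : Commute σ τ)
    (hσ : σ ^ p = 1) (hτ : τ ^ p = 1) :
    Nat.card A * Nat.card (fixed σ ⊓ fixed τ : Subgroup A) ^ p ≤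
      (∏ i : Fin p, Nat.card (fixed (σ * τ ^ (i : ℕ)))) * Nat.card (fixed τ) := by
  classical
  let D := (∀ i : Fin p, fixed (σ * τ ^ (i : ℕ))) × fixed τ
  let Φ : D →* A := MonoidHom.mk' (fun d => (∏ i, (d.1 i : A)) * d.2) fun a b => by
    show (∏ i, ((a.1 i : A) * (b.1 i : A))) * ((a.2 : A) * b.2) = _
    rw [Finset.prod_mul_distrib]
    exact mul_mul_mul_comm _ _ _ _
  have hrange : Φ.range = ⊤ := by
    rw [eq_top_iff]
    intro a _
    obtain ⟨u, w, hu, hw, huw⟩ := abelian_surj hp hA σ τ hc hσ hτ a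
    exact ⟨(fun i => ⟨u i, hu i⟩, ⟨w, hw⟩), huw⟩
  set J : Subgroup A := fixed σ ⊓ fixed τ
  have hJi : ∀ (v : J) (i : Fin p), (v : A) ∈ fixed (σ * τ ^ (i : ℕ)) := by
    intro v i
    rw [mem_fixed, MulAut.mul_apply, Cfsg.Agent.FGS3.FixedPointOrders.fixed_pow (mem_fixed.1 v.2.2), mem_fixed.1 v.2.1]
  let g : (Fin p → J) → Φ.ker := fun v =>
    ⟨(fun i => ⟨v i, hJi (v i) i⟩, ⟨(∏ i, ((v i : J) : A))⁻¹, inv_mem (prod_mem fun i _ => (v i).2.2)⟩),
      show (∏ i, ((v i : J) : A)) * (∏ i, ((v i : J) : A))⁻¹ = 1 from mul_inv_cancel _⟩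
  have hg : Function.Injective g := fun v v' h => funext fun i =>
    Subtype.ext (congrArg Subtype.val (congrFun (congrArg (fun d : Φ.ker => (d : D).1) h) i) :)
  calc Nat.card A * Nat.card J ^ p ≤ Nat.card Φ.range * Nat.card Φ.ker := by
        refine Nat.mul_le_mul (by rw [hrange, card_top]) ?_
        refine le_trans (le_of_eq ?_) (Nat.card_le_card_of_injective g hg)
        rw [Nat.card_fun, Nat.card_fin]
    _ = Nat.card D := by rw [← Subgroup.index_ker, mul_comm, card_mul_index]
    _ = _ := by rw [Nat.card_prod, Nat.card_pi]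

end abelian

variable {G : Type*} [Group G] [Finite G] {p : ℕ} [hp : Fact p.Prime]

/-- A fixed point on the abelianization lifts to a fixed point. -/
theorem lift_fixed {M P : Subgroup G} (hP : IsPGroup p P) (hPM : P ≤ normalizer (M : Set G))
    (hM : ¬ p ∣ Nat.card M) (w : P) {a : Abelianization M} (ha : a ∈ fixed (autAb M P hPM w)) :
    ∃ m : M, (m : G) ∈ centralizer {(w : G)} ∧ Abelianization.of m = a := by
  classical
  obtain ⟨m, rfl⟩ := of_surj a
  set A' := zpowers (w : G) with hA'
  have hA'P : A' ≤ P := zpowers_le.2 w.2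
  haveI : Group.IsSolvable A' := Cfsg.Agent.FGS3.FixedPointOrders.isSolvable_of_pGroup (hP.to_le hA'P)
  set K := (commutator M).map M.subtype
  have hNM : normalizer (M : Set G) ≤ normalizer (K : Set G) := by
    rw [show K = ⁅M, M⁆ from map_subtype_commutator M]
    intro g hg
    rw [mem_normalizer_iff_map_conj_eq, map_commutator, mem_normalizer_iff_map_conj_eq.mp hg]
  have hfix : ∀ b ∈ A', ⁅(m : G), b⁆ ∈ K := by
    intro b hb
    have h1 : autAb M P hPM ⟨b, hA'P hb⟩ (Abelianization.of m) = Abelianization.of m := by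
      obtain ⟨i, hi⟩ := mem_zpowers_iff.1 hb
      have he : (⟨b, hA'P hb⟩ : P) = w ^ i := Subtype.ext (by rw [SubgroupClass.coe_zpow, hi])
      rw [he, map_zpow]
      have h2 : autAb M P hPM w ∈ MulAction.stabilizer (MulAut (Abelianization M)) (Abelianization.of m) :=
        mem_fixed.1 ha
      exact zpow_mem h2 i
    rw [autAb_of] at h1
    have h4 : ((⟨b * m * b⁻¹, (mem_normalizer_iff.mp (hPM (hA'P hb)) m).mp m.2⟩ : M) * m⁻¹) ∈
        (Abelianization.of : M →* _).ker := by
      rw [MonoidHom.mem_ker, map_mul, map_inv, mul_inv_eq_one]; exact h1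
    rw [Abelianization.ker_of] at h4
    have h5 := inv_mem (mem_map_of_mem M.subtype h4)
    simpa [commutatorElement_def, mul_assoc, K] using h5
  obtain ⟨k, hk, c', hc', hmc⟩ := Coprime.exists_mul_centralizer (hA'P.trans hPM)
    (Cfsg.Agent.FGS3.FixedPointOrders.coprime_card (hP.to_le hA'P) hM) (map_subtype_le _)
    (hA'P.trans (hPM.trans hNM)) m.2 hfix
  obtain ⟨k', hk', rfl⟩ := hk
  refine ⟨⟨c', hc'.1⟩, ?_, ?_⟩
  · exact centralizer_le (Set.singleton_subset_iff.2 (mem_zpowers _)) hc'.2
  · rw [show m = k' * ⟨c', hc'.1⟩ from Subtype.ext hmc, map_mul,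
      show Abelianization.of k' = 1 by rw [← MonoidHom.mem_ker, Abelianization.ker_of]; exact hk', one_mul]

/-- One layer of the decomposition. -/
theorem layer {M P : Subgroup G} (hP : IsPGroup p P) (hPM : P ≤ normalizer (M : Set G))
    (hM : ¬ p ∣ Nat.card M) (x z : P) (hc : Commute x z) (hx : x ^ p = 1) (hz : z ^ p = 1) (k : M) :
    ∃ (u : Fin p → M) (w : M), (∀ i : Fin p, (u i : G) ∈ centralizer {((x * z ^ (i : ℕ) : P) : G)}) ∧
      (w : G) ∈ centralizer {(z : G)} ∧
      ((List.ofFn u).prod * w)⁻¹ * k ∈ commutator M := by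
  classical
  have hcop : p.Coprime (Nat.card (Abelianization M)) :=
    hp.out.coprime_iff_not_dvd.mpr fun h => hM (h.trans (card_quotient_dvd_card _))
  set φ := autAb M P hPM
  obtain ⟨u, w, hu, hw, huw⟩ := abelian_surj hp.out hcop (φ x) (φ z) (hc.map φ)
    (by rw [← map_pow, hx, map_one]) (by rw [← map_pow, hz, map_one]) (Abelianization.of k)
  have hu' : ∀ i : Fin p, u i ∈ fixed (φ (x * z ^ (i : ℕ))) := fun i => by rw [map_mul, map_pow]; exact hu i
  choose uu huu1 huu2 using fun i => lift_fixed hP hPM hM _ (hu' i)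
  obtain ⟨ww, hww1, hww2⟩ := lift_fixed hP hPM hM z hw
  refine ⟨uu, ww, huu1, hww1, ?_⟩
  rw [← Abelianization.ker_of, MonoidHom.mem_ker, map_mul, map_inv, map_mul, map_list_prod, List.map_ofFn,
    List.prod_ofFn, hww2]
  simp only [Function.comp_apply, huu2, huw, inv_mul_cancel]

theorem prod_ofFn_mul {H : Type*} [Group H] : ∀ {n : ℕ} (a b : Fin n → H),
    (∀ i, b i ∈ center H) → (List.ofFn fun i => a i * b i).prod = (List.ofFn a).prod * (List.ofFn b).prod := by
  intro n
  induction n with
  | zero => intro a b _; simp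
  | succ n ih =>
    intro a b hb
    rw [List.ofFn_succ, List.prod_cons, List.ofFn_succ, List.prod_cons, List.ofFn_succ, List.prod_cons,
      ih (fun i => a i.succ) (fun i => b i.succ) fun i => hb i.succ]
    calc a 0 * b 0 * ((List.ofFn fun i => a i.succ).prod * (List.ofFn fun i => b i.succ).prod)
        = a 0 * (b 0 * (List.ofFn fun i => a i.succ).prod) * (List.ofFn fun i => b i.succ).prod := by group
      _ = a 0 * ((List.ofFn fun i => a i.succ).prod * b 0) * (List.ofFn fun i => b i.succ).prod := by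
          rw [(mem_center_iff.1 (hb 0) _).symm]
      _ = _ := by group

/-- A nilpotent group of order prime to `p` is the product of the fixed-point subgroups. -/
theorem exists_prod {M P : Subgroup G} [Group.IsNilpotent M] (hP : IsPGroup p P)
    (hPM : P ≤ normalizer (M : Set G)) (hM : ¬ p ∣ Nat.card M) (x z : P) (hc : Commute x z)
    (hx : x ^ p = 1) (hz : z ^ p = 1) (m : M) :
    ∃ (u : Fin p → M) (w : M), (∀ i : Fin p, (u i : G) ∈ centralizer {((x * z ^ (i : ℕ) : P) : G)}) ∧
      (w : G) ∈ centralizer {(z : G)} ∧ (List.ofFn u).prod * w = m := by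
  classical
  have step : ∀ n : ℕ, ∃ (u : Fin p → M) (w : M),
      (∀ i : Fin p, (u i : G) ∈ centralizer {((x * z ^ (i : ℕ) : P) : G)}) ∧
      (w : G) ∈ centralizer {(z : G)} ∧ ((List.ofFn u).prod * w)⁻¹ * m ∈ (⊤ : Subgroup M).lowerCentralSeries n := by
    intro n
    induction n with
    | zero => exact ⟨fun _ => 1, 1, fun _ => one_mem _, one_mem _, by rw [Subgroup.lowerCentralSeries_zero]; trivial⟩
    | succ n ih =>
      obtain ⟨u, w, hu, hw, hk⟩ := ih
      set L := (⊤ : Subgroup M).lowerCentralSeries n with hL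
      set L' := (⊤ : Subgroup M).lowerCentralSeries (n + 1) with hL'
      set K := L.map M.subtype with hK
      have hKM : K ≤ M := map_subtype_le _
      have hPK : P ≤ normalizer (K : Set G) := by
        intro a ha
        rw [mem_normalizer_iff_map_conj_eq]
        have h1 : M.map (MulAut.conj a).toMonoidHom = M := mem_normalizer_iff_map_conj_eq.1 (hPM ha)
        have h2 : ∀ n, (((⊤ : Subgroup M).lowerCentralSeries n).map M.subtype).map (MulAut.conj a).toMonoidHom =
            ((⊤ : Subgroup M).lowerCentralSeries n).map M.subtype := by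
          intro n
          induction n with
          | zero => rw [Subgroup.lowerCentralSeries_zero, ← MonoidHom.range_eq_map, range_subtype, h1]
          | succ n ih =>
            rw [Subgroup.lowerCentralSeries_succ, map_commutator, map_commutator, ih, ← MonoidHom.range_eq_map,
              range_subtype, h1]
        exact h2 n
      have hM' : ¬ p ∣ Nat.card K := fun h => hM (h.trans (card_dvd_of_le hKM))
      obtain ⟨k₀, hk₀, hk₀e⟩ : ∃ k₀ ∈ L, k₀ = ((List.ofFn u).prod * w)⁻¹ * m := ⟨_, hk, rfl⟩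
      obtain ⟨v, w', hv, hw', hrem⟩ := layer hP hPK hM' x z hc hx hz ⟨(k₀ : G), mem_map_of_mem _ hk₀⟩
      let j : K →* M := Subgroup.inclusion hKM
      have hjL : ∀ a : K, j a ∈ L := by
        intro a
        obtain ⟨b, hb, hbe⟩ := a.2
        have : j a = b := Subtype.ext hbe.symm
        rw [this]; exact hb
      haveI : L'.Normal := inferInstance
      set f := QuotientGroup.mk' L' with hf
      have hcen : ∀ a ∈ L, f a ∈ center (M ⧸ L') := by
        intro a ha
        rw [mem_center_iff]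
        intro q
        obtain ⟨b, rfl⟩ := QuotientGroup.mk'_surjective L' q
        rw [← map_mul, ← map_mul, hf, QuotientGroup.mk'_apply, QuotientGroup.mk'_apply, QuotientGroup.eq]
        have h3 : ⁅a⁻¹, b⁻¹⁆ ∈ L' := by
          rw [hL', Subgroup.lowerCentralSeries_succ]
          exact commutator_mem_commutator (inv_mem ha) (mem_top _)
        rw [commutatorElement_def, inv_inv, inv_inv] at h3
        rw [show (b * a)⁻¹ * (a * b) = a⁻¹ * b⁻¹ * a * b by group]
        exact h3
      have hcom : ∀ a ∈ commutator K, f (j a) = 1 := by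
        intro a ha
        rw [hf, QuotientGroup.mk'_apply, QuotientGroup.eq_one_iff]
        have hle : (commutator K).map j ≤ L' := by
          rw [_root_.commutator_def, map_commutator, hL', Subgroup.lowerCentralSeries_succ]
          refine commutator_mono ?_ le_top
          rintro _ ⟨b, -, rfl⟩
          exact hjL b
        exact hle (mem_map_of_mem _ ha)
      refine ⟨fun i => u i * j (v i), w * j w', fun i => mul_mem (hu i) (hv i), mul_mem hw hw', ?_⟩
      rw [← QuotientGroup.eq_one_iff, ← QuotientGroup.mk'_apply, ← hf, map_mul, map_inv, inv_mul_eq_one]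
      have hk0 : f (j ⟨(k₀ : G), mem_map_of_mem _ hk₀⟩) = f ((List.ofFn v).map j).prod * f (j w') := by
        have h4 := hcom _ hrem
        rw [map_mul, map_mul, map_inv, map_inv, inv_mul_eq_one, map_mul, map_mul, map_list_prod j] at h4
        exact h4.symm
      have hj0 : j ⟨(k₀ : G), mem_map_of_mem _ hk₀⟩ = ((List.ofFn u).prod * w)⁻¹ * m := Subtype.ext (by rw [← hk₀e]; rfl)
      rw [hj0, map_mul, map_inv, eq_comm, eq_inv_mul_iff_mul_eq, map_mul, List.map_ofFn] at hk0
      rw [map_mul, map_list_prod, List.map_ofFn, show f ∘ (fun i => u i * j (v i)) = fun i => f (u i) * f (j (v i)) from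
          funext fun i => map_mul f _ _,
        prod_ofFn_mul (fun i => f (u i)) (fun i => f (j (v i))) (fun i => hcen _ (hjL _)), map_mul, ← hk0,
        map_list_prod f, List.map_ofFn, map_list_prod f, List.map_ofFn]
      have hcprod : (List.ofFn fun i => f (j (v i))).prod ∈ center (M ⧸ L') :=
        list_prod_mem fun q hq => by
          obtain ⟨i, rfl⟩ := List.mem_ofFn.1 hq
          exact hcen _ (hjL _)
      show (List.ofFn fun i => f (u i)).prod * (List.ofFn fun i => f (j (v i))).prod * (f w * f (j w')) =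
        (List.ofFn fun i => f (u i)).prod * f w * ((List.ofFn fun i => f (j (v i))).prod * f (j w'))
      rw [mul_assoc, mul_assoc]
      congr 1
      rw [← mul_assoc, ← mul_assoc, mem_center_iff.1 hcprod (f w)]
  obtain ⟨n, hn⟩ : ∃ n, (⊤ : Subgroup M).lowerCentralSeries n = ⊥ :=
    Subgroup.nilpotent_iff_lowerCentralSeries.1 inferInstance
  obtain ⟨u, w, hu, hw, hk⟩ := step n
  rw [hn, mem_bot, inv_mul_eq_one] at hk
  exact ⟨u, w, hu, hw, hk⟩

/-- The reverse inequality for solvable groups. -/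
theorem lower_solvable {P : Subgroup G} (hP : IsPGroup p P) (x z : P) (hc : Commute x z)
    (hx : x ^ p = 1) (hz : z ^ p = 1) (M : Subgroup G) [Group.IsSolvable M]
    (hPM : P ≤ normalizer (M : Set G)) (hM : ¬ p ∣ Nat.card M) :
    Nat.card M * c M {(x : G), (z : G)} ^ p ≤
      (∏ i : Fin p, c M {((x * z ^ (i : ℕ) : P) : G)}) * c M {(z : G)} := by
  induction hn : Nat.card M using Nat.strong_induction_on generalizing M with
  | _ n ih =>
  subst hn
  by_cases htriv : M = ⊥
  · subst htriv
    simp [c]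
  haveI : Nontrivial M := (nontrivial_iff_ne_bot _).mpr htriv
  set K : Subgroup G := (commutator M).map M.subtype
  have hKM : K ≤ M := map_subtype_le _
  have hlt : Nat.card K < Nat.card M := by
    rw [card_map_of_injective M.subtype_injective]
    refine lt_of_le_of_ne (Subgroup.card_le_card_group _) fun h => ?_
    exact (Group.IsSolvable.commutator_lt_top_of_nontrivial M).ne (eq_top_of_card_eq _ h)
  haveI : Group.IsSolvable K := solvable_of_solvable_injective (Subgroup.inclusion_injective hKM)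
  have hNM : normalizer (M : Set G) ≤ normalizer (K : Set G) := by
    rw [show K = ⁅M, M⁆ from map_subtype_commutator M]
    intro g hg
    rw [mem_normalizer_iff_map_conj_eq, map_commutator, mem_normalizer_iff_map_conj_eq.mp hg]
  have hrec := ih _ hlt K (hPM.trans hNM) (fun h => hM (h.trans (card_dvd_of_le hKM))) rfl
  have hone : ∀ w : P, c M {(w : G)} = c K {(w : G)} * Nat.card (fixed (autAb M P hPM w)) := by
    intro w
    have := c_eq_mul hP hPM hM {w}
    simpa using this
  have htwo : c M {(x : G), (z : G)} = c K {(x : G), (z : G)} *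
      Nat.card (fixed (autAb M P hPM x) ⊓ fixed (autAb M P hPM z) : Subgroup (Abelianization M)) := by
    have := c_eq_mul hP hPM hM {x, z}
    simpa [Set.image_pair, _root_.iInf_insert, K] using this
  have hcardM : Nat.card M = Nat.card K * Nat.card (Abelianization M) := by
    rw [card_map_of_injective M.subtype_injective]
    exact (card_mul_index _).symm
  have hcopA : p.Coprime (Nat.card (Abelianization M)) :=
    hp.out.coprime_iff_not_dvd.mpr fun h => hM (h.trans (Dvd.intro_left _ hcardM.symm))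
  have hab := abelian_lower hp.out hcopA (autAb M P hPM x) (autAb M P hPM z) (hc.map _)
    (by rw [← map_pow, hx, map_one]) (by rw [← map_pow, hz, map_one])
  simp only [hone, htwo, map_mul, map_pow, Finset.prod_mul_distrib, hcardM]
  calc _ = (Nat.card K * c K {(x : G), (z : G)} ^ p) * (Nat.card (Abelianization M) *
          Nat.card (fixed (autAb M P hPM x) ⊓ fixed (autAb M P hPM z) : Subgroup (Abelianization M)) ^ p) := by ring
    _ ≤ _ := Nat.mul_le_mul hrec hab
    _ = _ := by ring

/-- The reverse inequality. -/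
theorem lower {P : Subgroup G} (hP : IsPGroup p P) (x z : P) (hc : Commute x z) (hx : x ^ p = 1)
    (hz : z ^ p = 1) (M : Subgroup G) (hPM : P ≤ normalizer (M : Set G)) (hM : ¬ p ∣ Nat.card M) :
    Nat.card M * c M {(x : G), (z : G)} ^ p ≤
      (∏ i : Fin p, c M {((x * z ^ (i : ℕ) : P) : G)}) * c M {(z : G)} := by
  classical
  haveI : Group.IsSolvable P := Cfsg.Agent.FGS3.FixedPointOrders.isSolvable_of_pGroup hP
  set T := (Nat.card M).primeFactors
  have hsyl : ∀ q : T, ∃ Q : Subgroup G, Q ≤ M ∧ IsPGroup q Q ∧ ¬ (q : ℕ) ∣ Q.relIndex M ∧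
      P ≤ normalizer (Q : Set G) := fun q => by
    haveI := Fact.mk (Nat.prime_of_mem_primeFactors q.2)
    exact Coprime.exists_invariant_sylow hPM (Cfsg.Agent.FGS3.FixedPointOrders.coprime_card hP hM) q
  choose Q hQM hQp hQi hQP using hsyl
  have hfac : ∀ S : Set G, S ⊆ P → c M S = ∏ q : T, c (Q q) S := by
    intro S hS
    rw [Finset.prod_congr rfl fun (q : T) _ => by
      haveI := Fact.mk (Nat.prime_of_mem_primeFactors q.2)
      exact c_sylow hP hPM hM (hQM q) (hQp q) (hQi q) (hQP q) S hS,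
      Finset.prod_coe_sort T (fun q => q ^ (c M S).factorization q)]
    have hd : c M S ∣ Nat.card M := card_dvd_of_le inf_le_left
    conv_lhs => rw [← Nat.prod_factorization_pow_eq_self (c_pos M S).ne']
    rw [Finsupp.prod_of_support_subset _ (s := T) (by
      rw [Nat.support_factorization]; exact Nat.primeFactors_mono hd Nat.card_pos.ne') _ (by simp)]
  have hcard : Nat.card M = ∏ q : T, Nat.card (Q q) := by
    simpa only [Cfsg.Agent.FGS3.FixedPointOrders.c_empty] using hfac ∅ (Set.empty_subset _)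
  have h1 : ∀ i : Fin p, c M {((x * z ^ (i : ℕ) : P) : G)} =
      ∏ q : T, c (Q q) {((x * z ^ (i : ℕ) : P) : G)} := fun i =>
    hfac _ (Set.singleton_subset_iff.mpr (x * z ^ (i : ℕ) : P).2)
  rw [hfac {(z : G)} (by simp), hfac {(x : G), (z : G)} (by simp [Set.insert_subset_iff]), hcard]
  simp only [h1]
  rw [Finset.prod_comm, ← Finset.prod_mul_distrib, ← Finset.prod_pow, ← Finset.prod_mul_distrib]
  refine Finset.prod_le_prod' fun q _ => ?_
  haveI := Fact.mk (Nat.prime_of_mem_primeFactors q.2)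
  haveI : Group.IsSolvable (Q q) := by haveI := (hQp q).isNilpotent; infer_instance
  exact lower_solvable hP x z hc hx hz (Q q) (hQP q) (fun h => hM (h.trans (card_dvd_of_le (hQM q))))

/-- An invariant subgroup of large index in some fixed-point subgroup, or of bounded index. -/
theorem card_le_of_fixed_le {P : Subgroup G} (hP : IsPGroup p P) (x z : P) (hc : Commute x z) (hx : x ^ p = 1)
    (hz : z ^ p = 1) {M C : Subgroup G} (hCM : C ≤ M) (hPM : P ≤ normalizer (M : Set G))
    (hPC : P ≤ normalizer (C : Set G)) (hM : ¬ p ∣ Nat.card M) (m : ℕ)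
    (hi : ∀ i : Fin p, c M {((x * z ^ (i : ℕ) : P) : G)} ≤ m * c C {((x * z ^ (i : ℕ) : P) : G)})
    (hzb : c M {(z : G)} ≤ m * c C {(z : G)}) : Nat.card M ≤ m ^ (p + 1) * Nat.card C := by
  have h1 := lower hP x z hc hx hz M hPM hM
  have hxz : ((x * z * x⁻¹ * z⁻¹ : P) : G) ∈ centralizer (C : Set G) := by
    rw [hc.eq, mul_inv_cancel_right, mul_inv_cancel, OneMemClass.coe_one]; exact one_mem _
  have h2 := Cfsg.Agent.FGS3.FixedPointOrders.bound hP x z C hPC (fun h => hM (h.trans (card_dvd_of_le hCM))) hxz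
    (by rw [hz, OneMemClass.coe_one]; exact one_mem _)
  have h3 : c C {(x : G), (z : G)} ≤ c M {(x : G), (z : G)} := card_le_of_le (inf_le_inf_right _ hCM)
  refine Nat.le_of_mul_le_mul_right (c := c M {(x : G), (z : G)} ^ p) ?_ (pow_pos (c_pos _ _) _)
  refine h1.trans ?_
  calc (∏ i : Fin p, c M {((x * z ^ (i : ℕ) : P) : G)}) * c M {(z : G)}
      ≤ (∏ i : Fin p, m * c C {((x * z ^ (i : ℕ) : P) : G)}) * (m * c C {(z : G)}) :=
        Nat.mul_le_mul (Finset.prod_le_prod' fun i _ => hi i) hzb
    _ = m ^ (p + 1) * ((∏ i : Fin p, c C {((x * z ^ (i : ℕ) : P) : G)}) * c C {(z : G)}) := by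
        rw [Finset.prod_mul_distrib, Finset.prod_const, Finset.card_univ, Fintype.card_fin]; ring
    _ ≤ m ^ (p + 1) * (Nat.card C * c C {(x : G), (z : G)} ^ p) := Nat.mul_le_mul_left _ h2
    _ ≤ m ^ (p + 1) * (Nat.card C * c M {(x : G), (z : G)} ^ p) :=
        Nat.mul_le_mul_left _ (Nat.mul_le_mul_left _ (Nat.pow_le_pow_left h3 p))
    _ = _ := by ring

end Cfsg.Agent.FGS4.BFC
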