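import Cfsg.Agent.FGS4.BFC.Decomp
import Cfsg.Agent.PLocal.ElemAb

/-! # The derived subgroup and the derived subgroups of fixed points -/

set_option linter.style.haveILetI false
set_option linter.unusedSectionVars false

namespace Cfsg.Agent.FGS4.BFC

open Subgroup
open Cfsg.Agent.FGS3.FixedPointOrders (c)

/-- The bound on the derived subgroup. -/
def mainBound (q m : ℕ) : ℕ :=
  let K := ((m ^ (q + 1)) ^ (q + 1)) ^ (q + 1)
  derivedBound (K ^ (K + 1))

variable {G : Type*} [Group G] [Finite G] {q : ℕ} [hq : Fact q.Prime]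

/-- Inside an abelian group normalizing `M`, fixed-point subgroups are invariant. -/
theorem le_normalizer_fixed {A M : Subgroup G} (hab : ∀ a ∈ A, ∀ b ∈ A, a * b = b * a)
    (hAM : A ≤ normalizer (M : Set G)) {d : G} (hd : d ∈ A) :
    A ≤ normalizer ((M ⊓ centralizer {d} : Subgroup G) : Set G) := by
  refine (le_inf hAM ?_).trans inf_normalizer_le_normalizer_inf
  refine le_trans (fun a ha => ?_) le_normalizer
  rw [mem_centralizer_singleton_iff]
  exact hab a ha d hd

theorem exists_independent {A : Subgroup G} (hA : Nat.card A = q ^ 3) (hab : ∀ a ∈ A, ∀ b ∈ A, a * b = b * a)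
    (he : ∀ a ∈ A, a ^ q = 1) (d : G) (hd : d ∈ A) :
    ∃ x z : G, x ∈ A ∧ z ∈ A ∧ (z ∉ zpowers d) ∧ ∀ i : ℕ, x * z ^ i ∉ zpowers d := by
  have hcz : ∀ a ∈ A, Nat.card (zpowers a) ≤ q := fun a ha => by
    rw [Nat.card_zpowers]; exact Nat.le_of_dvd hq.out.pos (orderOf_dvd_of_pow_eq_one (he a ha))
  obtain ⟨z, hzA, hz⟩ : ∃ z ∈ A, z ∉ zpowers d := by
    by_contra hall
    push Not at hall
    have h1 := (card_le_of_le (show A ≤ zpowers d from hall)).trans (hcz d hd)
    rw [hA] at h1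
    have := Nat.pow_lt_pow_right hq.out.one_lt (show 1 < 3 by norm_num)
    rw [pow_one] at this
    omega
  obtain ⟨x, hxA, hx⟩ : ∃ x ∈ A, x ∉ zpowers d ⊔ zpowers z := by
    by_contra hall
    push Not at hall
    have hn : zpowers d ≤ normalizer (zpowers z : Set G) := by
      refine le_trans ?_ (centralizer_le_normalizer _)
      rw [zpowers_le, mem_centralizer_iff]
      intro v hv
      exact hab v ((zpowers_le.2 hzA) hv) d hd
    have h1 := PLocal.card_sup_mul_card_inf hn
    have h2 := card_le_of_le (show A ≤ zpowers d ⊔ zpowers z from hall)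
    rw [hA] at h2
    have h3 : 1 ≤ Nat.card (zpowers d ⊓ zpowers z : Subgroup G) := Nat.card_pos
    have h4 : Nat.card (zpowers d) * Nat.card (zpowers z) ≤ q * q := Nat.mul_le_mul (hcz d hd) (hcz z hzA)
    have h5 : q * q < q ^ 3 := by
      rw [← pow_two]; exact Nat.pow_lt_pow_right hq.out.one_lt (by norm_num)
    nlinarith
  refine ⟨x, z, hxA, hzA, hz, fun i hi => hx ?_⟩
  have h1 : x * z ^ i * (z ^ i)⁻¹ ∈ zpowers d ⊔ zpowers z :=
    mul_mem (mem_sup_left hi) (inv_mem (mem_sup_right (pow_mem (mem_zpowers z) i)))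
  rwa [mul_inv_cancel_right] at h1

theorem class_bound {A M : Subgroup G} (hA : Nat.card A = q ^ 3) (hab : ∀ a ∈ A, ∀ b ∈ A, a * b = b * a)
    (he : ∀ a ∈ A, a ^ q = 1) (hAM : A ≤ normalizer (M : Set G)) (hcop : ¬ q ∣ Nat.card M) (m : ℕ)
    (hm : ∀ a ∈ A, a ≠ 1 → Nat.card (commutator ↥(M ⊓ centralizer {a} : Subgroup G)) ≤ m)
    {d e : G} (hd : d ∈ A) (heA : e ∈ A) (he1 : e ≠ 1) (hde : d ∉ zpowers e)
    (u : M) (hud : (u : G) ∈ centralizer {d}) (hue : (u : G) ∈ centralizer {e}) :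
    (centralizer {u}).index ≤ m ^ (q + 1) := by
  set B := zpowers d ⊔ zpowers e with hB
  have hBA : B ≤ A := sup_le (zpowers_le.2 hd) (zpowers_le.2 heA)
  have hBp : IsPGroup q B := (IsPGroup.of_card hA).to_le hBA
  set C := M ⊓ centralizer {(u : G)} with hC
  have hBC : B ≤ normalizer (C : Set G) := by
    refine (le_inf (hBA.trans hAM) ?_).trans inf_normalizer_le_normalizer_inf
    refine le_trans (sup_le (zpowers_le.2 ?_) (zpowers_le.2 ?_)) le_normalizer
    · exact mem_centralizer_singleton_iff.2 (mem_centralizer_singleton_iff.1 hud).symm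
    · exact mem_centralizer_singleton_iff.2 (mem_centralizer_singleton_iff.1 hue).symm
  have hsmall : ∀ y ∈ A, y ≠ 1 → (u : G) ∈ centralizer {y} → c M {y} ≤ m * c C {y} := by
    intro y hy hy1 huy
    set L := M ⊓ centralizer {y} with hL
    have huL : (u : G) ∈ L := ⟨u.2, huy⟩
    have h1 := (centralizer {(⟨(u : G), huL⟩ : L)}).card_mul_index
    have h2 := (index_centralizer_le_commutator (⟨(u : G), huL⟩ : L)).trans (hm y hy hy1)
    have h3 : Nat.card (centralizer {(⟨(u : G), huL⟩ : L)}) ≤ c C {y} := by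
      refine Nat.card_le_card_of_injective (fun a => (⟨((a : L) : G), ?_⟩ : ↥(C ⊓ centralizer {y} : Subgroup G))) ?_
      · have h4 := mem_centralizer_singleton_iff.1 a.2
        exact ⟨⟨(a : L).2.1, mem_centralizer_singleton_iff.2 (congrArg Subtype.val h4)⟩, (a : L).2.2⟩
      · intro a b h
        exact Subtype.ext (Subtype.ext (congrArg Subtype.val h :))
    show Nat.card L ≤ _
    rw [← h1, mul_comm]
    exact Nat.mul_le_mul h2 h3
  let x : B := ⟨d, mem_sup_left (mem_zpowers d)⟩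
  let z : B := ⟨e, mem_sup_right (mem_zpowers e)⟩
  have hBe : ∀ b : B, b ^ q = 1 := fun b => Subtype.ext (by rw [SubgroupClass.coe_pow, he _ (hBA b.2)]; rfl)
  have hne : ∀ i : ℕ, d * e ^ i ≠ 1 := fun i h => hde (by
    rw [mul_eq_one_iff_eq_inv] at h; rw [h]; exact inv_mem (pow_mem (mem_zpowers e) i))
  have hle := card_le_of_fixed_le hBp x z (Subtype.ext (hab d hd e heA)) (hBe x) (hBe z) (M := M) (C := C)
    inf_le_left (hBA.trans hAM) hBC hcop m (fun i => hsmall _ (hBA (x * z ^ (i : ℕ)).2) (hne i) (by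
      rw [mem_centralizer_singleton_iff]
      show (u : G) * (d * e ^ (i : ℕ)) = d * e ^ (i : ℕ) * u
      exact ((show Commute (u : G) d from mem_centralizer_singleton_iff.1 hud).mul_right
        ((show Commute (u : G) e from mem_centralizer_singleton_iff.1 hue).pow_right _)).eq))
    (hsmall e heA he1 hue)
  have h1 := (centralizer {u}).card_mul_index
  have h2 : Nat.card C ≤ Nat.card (centralizer {u}) := by
    refine Nat.card_le_card_of_injective (fun a => (⟨⟨(a : G), a.2.1⟩, ?_⟩ : centralizer {u})) ?_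
    · exact mem_centralizer_singleton_iff.2 (Subtype.ext (mem_centralizer_singleton_iff.1 a.2.2))
    · intro a b h
      exact Subtype.ext (congrArg (fun w : centralizer {u} => ((w : M) : G)) h)
  refine Nat.le_of_mul_le_mul_left ?_ (Nat.card_pos (α := centralizer {u}))
  rw [h1, mul_comm]
  exact hle.trans (Nat.mul_le_mul_left _ h2)

theorem derived_bound {A M : Subgroup G} (hA : Nat.card A = q ^ 3) (hab : ∀ a ∈ A, ∀ b ∈ A, a * b = b * a)
    (he : ∀ a ∈ A, a ^ q = 1) (hAM : A ≤ normalizer (M : Set G)) (hcop : ¬ q ∣ Nat.card M) (m : ℕ)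
    (hm : ∀ a ∈ A, a ≠ 1 → Nat.card (commutator ↥(M ⊓ centralizer {a} : Subgroup G)) ≤ m) :
    Nat.card (commutator M) ≤ mainBound q m := by
  classical
  have hm1 : 1 ≤ m := by
    obtain ⟨x, z, -, hz, hz1, -⟩ := exists_independent hA hab he 1 (one_mem A)
    exact Nat.card_pos.trans_le (hm z hz fun h => hz1 (by rw [h]; exact one_mem _))
  have hAp : IsPGroup q A := IsPGroup.of_card hA
  have hAe : ∀ a : A, a ^ q = 1 := fun a => Subtype.ext (by rw [SubgroupClass.coe_pow, he _ a.2]; rfl)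
  have hAc : ∀ a b : A, Commute a b := fun a b => Subtype.ext (hab _ a.2 _ b.2)
  have hcopA : (Nat.card A).Coprime (Nat.card M) := Cfsg.Agent.FGS3.FixedPointOrders.coprime_card hAp hcop
  haveI : Group.IsSolvable A := Cfsg.Agent.FGS3.FixedPointOrders.isSolvable_of_pGroup hAp
  set K1 := m ^ (q + 1)
  set K2 := (K1 ^ (q + 1)) ^ (q + 1) with hK2
  have hK2one : 1 ≤ K2 := Nat.one_le_pow _ _ (Nat.pow_pos (Nat.pow_pos hm1))
  have hprime : ∀ g : M, ∀ p k : ℕ, p.Prime → orderOf g = p ^ k → (centralizer {g}).index ≤ K2 := by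
    intro g p k hp hg
    haveI := Fact.mk hp
    obtain ⟨R, hRM, hR, hRi, hRA⟩ := Coprime.exists_invariant_sylow hAM hcopA p
    have hgp : IsPGroup p (zpowers g) := IsPGroup.of_card (by rw [Nat.card_zpowers, hg])
    obtain ⟨S, hS⟩ := hgp.exists_le_sylow
    obtain ⟨w, hw, hwS⟩ := Coprime.exists_conj_of_sylow (hR.to_le le_rfl) (S.isPGroup'.map M.subtype) hRM
      (map_subtype_le _) hRi (by
        rw [Subgroup.relIndex, show ((S : Subgroup M).map M.subtype).subgroupOf M = (S : Subgroup M) from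
          comap_map_eq_self_of_injective M.subtype_injective _]
        exact S.not_dvd_index)
    obtain ⟨r, hr, hre⟩ := hwS.ge (mem_map_of_mem M.subtype (hS (mem_zpowers g)))
    have hge : g = ⟨w, hw⟩ * ⟨r, hRM hr⟩ * ⟨w, hw⟩⁻¹ := Subtype.ext hre.symm
    rw [hge, index_centralizer_conj]
    -- elements of the invariant Sylow subgroup
    have hcopR : ∀ S : Subgroup G, S ≤ M → ¬ q ∣ Nat.card S := fun S hS h => hcop (h.trans (card_dvd_of_le hS))
    haveI : Group.IsNilpotent R := hR.isNilpotent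
    have hlevel2 : ∀ d ∈ A, d ≠ 1 → ∀ v : R, (v : G) ∈ centralizer {d} →
        (centralizer {(⟨(v : G), hRM v.2⟩ : M)}).index ≤ K1 ^ (q + 1) := by
      intro d hd hd1 v hv
      set R' := R ⊓ centralizer {d} with hR'
      have hR'R : R' ≤ R := inf_le_left
      haveI : Group.IsNilpotent R' := (hR.to_le hR'R).isNilpotent
      obtain ⟨x, z, hx, hz, hz1, hxz⟩ := exists_independent hA hab he d hd
      obtain ⟨f, l, hf, hl, hprod⟩ := exists_prod hAp (le_normalizer_fixed hab hRA hd) (hcopR R' (hR'R.trans hRM))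
        (⟨x, hx⟩ : A) ⟨z, hz⟩ (hAc _ _) (hAe _) (hAe _) (⟨(v : G), v.2, hv⟩ : R')
      let j : R' →* M := Subgroup.inclusion (hR'R.trans hRM)
      have hnot : ∀ y ∈ A, y ∉ zpowers d → y ≠ 1 ∧ d ∉ zpowers y := by
        intro y hy hyd
        refine ⟨fun h => hyd (by rw [h]; exact one_mem _), fun hdy => hyd ?_⟩
        have h1 : zpowers d = zpowers y := by
          refine eq_of_le_of_card_ge (zpowers_le.2 hdy) ?_
          rw [Nat.card_zpowers, Nat.card_zpowers, orderOf_eq_prime (he d hd) hd1]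
          exact Nat.le_of_dvd hq.out.pos (orderOf_dvd_of_pow_eq_one (he y hy))
        rw [h1]; exact mem_zpowers y
      have h1 : ∀ (y : G), y ∈ A → y ∉ zpowers d → ∀ a : R', (a : G) ∈ centralizer {y} →
          (centralizer {j a}).index ≤ K1 := fun y hy hyd a ha =>
        class_bound hA hab he hAM hcop m hm hd hy (hnot y hy hyd).1 (hnot y hy hyd).2 (j a) a.2.2 ha
      have hj : (⟨(v : G), hRM v.2⟩ : M) = j ((List.ofFn f).prod * l) := by rw [hprod]; rfl
      rw [hj, map_mul, map_list_prod, List.map_ofFn, pow_succ]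
      refine index_mul_le (index_prod_le _ fun i => ?_) ?_
      · exact h1 _ ((⟨x, hx⟩ : A) * ⟨z, hz⟩ ^ (i : ℕ)).2 (hxz i) _ (hf i)
      · exact h1 z hz hz1 _ hl
    obtain ⟨x, z, hx, hz, hz1, hxz⟩ := exists_independent hA hab he 1 (one_mem A)
    obtain ⟨f, l, hf, hl, hprod⟩ := exists_prod hAp hRA (hcopR R hRM)
      (⟨x, hx⟩ : A) ⟨z, hz⟩ (hAc _ _) (hAe _) (hAe _) (⟨r, hr⟩ : R)
    let j : R →* M := Subgroup.inclusion hRM
    have hj : (⟨r, hRM hr⟩ : M) = j ((List.ofFn f).prod * l) := by rw [hprod]; rfl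
    rw [hj, map_mul, map_list_prod, List.map_ofFn, hK2, pow_succ _ q]
    refine index_mul_le (index_prod_le _ fun i => ?_) ?_
    · exact hlevel2 _ ((⟨x, hx⟩ : A) * ⟨z, hz⟩ ^ (i : ℕ)).2
        (fun h => hxz i (by rw [show x * z ^ (i : ℕ) = 1 from h]; exact one_mem _)) (f i) (hf i)
    · exact hlevel2 z hz (fun h => hz1 (by rw [h]; exact one_mem _)) l hl
  exact card_commutator_le (Nat.one_le_pow _ _ hK2one) (index_le_of_prime_power hK2one hprime)

end Cfsg.Agent.FGS4.BFC
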